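import Cfsg.Agent.Lib.Helper17.C3W.Defs

/-!
# Ladder C3, rung AD2: one adapted transvection gives all of them (`dim_K V = 2`)
-/

set_option autoImplicit false

namespace Cfsg.Agent.Lib.Helper17.C3W

open Module Cfsg.Agent.Lib.Helper97.C3

variable {F K V : Type*} [Field F] [Field K] [Algebra F K] [AddCommGroup V]
  [Module F V] [Module K V] [IsScalarTower F K V]

private lemma AD2_apply_inv (e : V ≃ₗ[F] V) (v : V) : e (e⁻¹ v) = v :=
  e.apply_symm_apply v

private lemma AD2_inv_apply_self (e : V ≃ₗ[F] V) (v : V) : e⁻¹ (e v) = v :=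
  e.symm_apply_apply v

private lemma AD2_smul (f : V →ₗ[K] K) (c : F) (v : V) : f (c • v) = c • f v := by
  rw [← algebraMap_smul K c v, map_smul, algebraMap_smul]

/-- decomposition of `V` over `K` in dimension two -/
private lemma AD2_decompV [FiniteDimensional K V] (hm : finrank K V = 2) {x vb : V} (hx : x ≠ 0)
    {fx : V →ₗ[K] K} (hfx : fx x = 0) (hfv : fx vb = 1) (v : V) :
    ∃ α : K, v = α • x + fx v • vb := by
  let Φ : K × K →ₗ[K] V :=
    LinearMap.coprod (LinearMap.toSpanSingleton K V x) (LinearMap.toSpanSingleton K V vb)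
  have hΦ : ∀ p : K × K, Φ p = p.1 • x + p.2 • vb := fun p => by
    simp [Φ, LinearMap.coprod_apply, LinearMap.toSpanSingleton_apply]
  have hinj : Function.Injective Φ := by
    rw [← LinearMap.ker_eq_bot, LinearMap.ker_eq_bot']
    rintro ⟨c, d⟩ h
    rw [hΦ] at h
    simp only at h
    have hd : d = 0 := by
      have := congrArg fx h
      simpa [hfx, hfv] using this
    subst hd
    rw [zero_smul, add_zero] at h
    have hc : c = 0 := by
      rcases smul_eq_zero.1 h with h | h
      · exact h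
      · exact absurd h hx
    rw [hc]; rfl
  have hsurj : Function.Surjective Φ := by
    apply (LinearMap.injective_iff_surjective_of_finrank_eq_finrank ?_).1 hinj
    rw [hm]; simp
  obtain ⟨p, hp⟩ := hsurj v
  refine ⟨p.1, ?_⟩
  have h2 : fx v = p.2 := by
    rw [← hp, hΦ]; simp [hfx, hfv]
  rw [h2, ← hΦ, hp]

/-- all adapted transvections with centre `u` lie in `X` -/
private def AD2_Good (X : Subgroup (V ≃ₗ[F] V)) (u : V) : Prop :=
  ∀ (κ : K →ₗ[F] F) (f : V →ₗ[K] K) (h : f u = 0), atv κ f u h ∈ X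

private lemma AD2_transfer (X : Subgroup (V ≃ₗ[F] V)) (hX : BigW K X) {u1 u2 : V} (hu1 : u1 ≠ 0)
    (h1 : AD2_Good (K := K) X u1) (h2 : u2 ∉ Submodule.span K {u1}) : AD2_Good (K := K) X u2 := by
  intro κ f hf
  have hnot : u1 ∉ Submodule.span K {u2 - u1} := by
    intro hmem
    obtain ⟨c, hc⟩ := Submodule.mem_span_singleton.1 hmem
    apply h2
    have hc0 : c ≠ 0 := by
      rintro rfl
      rw [zero_smul] at hc
      exact hu1 hc.symm
    rw [Submodule.mem_span_singleton]
    refine ⟨1 + c⁻¹, ?_⟩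
    have : c⁻¹ • u1 = u2 - u1 := by
      calc c⁻¹ • u1 = c⁻¹ • (c • (u2 - u1)) := by rw [hc]
        _ = u2 - u1 := by rw [smul_smul, inv_mul_cancel₀ hc0, one_smul]
    rw [add_smul, one_smul, this]
    abel
  obtain ⟨g, hg0, hg1⟩ := exists_fun_one hnot
  set h := ktv F g (u2 - u1) hg0 with hh
  have hhX : h ∈ X := ktv_memW hX g _ hg0
  have hhu : h u1 = u2 := by
    rw [hh, ktv_apply, hg1, one_smul]; abel
  have hf' : (f + f (u2 - u1) • g) u1 = 0 := by
    simp [hg1, hf]
  have hfh : ∀ w, (f + f (u2 - u1) • g) w = f (h w) := by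
    intro w
    rw [hh, ktv_apply, map_add, map_smul]
    simp [mul_comm]
  have : atv κ f u2 hf = h * atv κ (f + f (u2 - u1) • g) u1 hf' * h⁻¹ := by
    apply LinearEquiv.ext
    intro v
    rw [LinearEquiv.mul_apply, LinearEquiv.mul_apply, atv_apply, atv_apply, map_add, AD2_apply_inv,
      map_smul, hhu, hfh, AD2_apply_inv]
  rw [this]
  exact X.mul_mem (X.mul_mem hhX (h1 κ _ hf')) (X.inv_mem hhX)

theorem allATV_of_two [Fintype F] [FiniteDimensional F K] [FiniteDimensional K V]
    (hr : 2 ≤ finrank F K) (hm : finrank K V = 2)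
    (X : Subgroup (V ≃ₗ[F] V)) (hX : BigW K X) (h : HasATV K X) : AllATV K X := by
  obtain ⟨κ0, f0, u0, h0, hκ0, hf0, hu0, hT⟩ := h
  obtain ⟨y, hy⟩ : ∃ y, f0 y = 1 := by
    have : ∃ z, f0 z ≠ 0 := by
      by_contra hcon
      push Not at hcon
      exact hf0 (LinearMap.ext hcon)
    obtain ⟨z, hz⟩ := this
    exact ⟨(f0 z)⁻¹ • z, by simp [hz]⟩
  have hM0 : ∀ μ : K, (μ • f0) u0 = 0 := fun μ => by simp [h0]
  let M : K → Prop := fun μ => atv κ0 (μ • f0) u0 (hM0 μ) ∈ X
  have hM1 : M 1 := by
    have : atv κ0 ((1:K) • f0) u0 (hM0 1) = atv κ0 f0 u0 h0 := by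
      apply LinearEquiv.ext; intro v; simp
    show atv _ _ _ _ ∈ X
    rw [this]; exact hT
  have hMz : M 0 := by
    have : atv κ0 ((0:K) • f0) u0 (hM0 0) = 1 := by
      apply LinearEquiv.ext; intro v; simp
    show atv _ _ _ _ ∈ X
    rw [this]; exact X.one_mem
  have hMadd : ∀ a b, M a → M b → M (a + b) := by
    intro a b ha hb
    have : atv κ0 ((a + b) • f0) u0 (hM0 _)
        = atv κ0 (a • f0) u0 (hM0 _) * atv κ0 (b • f0) u0 (hM0 _) := by
      apply LinearEquiv.ext; intro v
      rw [LinearEquiv.mul_apply, atv_apply, atv_apply, atv_apply]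
      simp [h0, add_smul]; abel
    show atv _ _ _ _ ∈ X
    rw [this]; exact X.mul_mem ha hb
  have hMneg : ∀ a, M a → M (-a) := by
    intro a ha
    have : atv κ0 ((-a) • f0) u0 (hM0 _) = (atv κ0 (a • f0) u0 (hM0 _))⁻¹ := by
      rw [eq_inv_iff_mul_eq_one]
      apply LinearEquiv.ext; intro v
      rw [LinearEquiv.mul_apply, atv_apply, atv_apply]
      simp [h0]
    show atv _ _ _ _ ∈ X
    rw [this]; exact X.inv_mem ha
  have hMmul : ∀ d : K, Algebra.norm F d = 1 → ∀ μ, M μ → M (d * μ) := by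
    intro d hd μ hμ
    have hd1 : 1 + ((d - 1) • f0) y = d := by simp [hy]
    have hd0 : d ≠ 0 := by
      rintro rfl
      rw [Algebra.norm_zero] at hd
      exact zero_ne_one hd
    have hne : 1 + ((d - 1) • f0) y ≠ 0 := by rw [hd1]; exact hd0
    set e := kdil F ((d - 1) • f0) y hne with he
    have heX : e ∈ X := kdil_memW hX _ _ hne (by rw [hd1]; exact hd)
    have heu : e u0 = u0 := by
      rw [he, kdil_apply]; simp [h0]
    have hfe : ∀ v, f0 (e v) = d * f0 v := by
      intro v
      rw [he, kdil_apply, map_add, map_smul, hy]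
      simp only [LinearMap.smul_apply, smul_eq_mul]
      ring
    have heu' : e⁻¹ u0 = u0 := by
      conv_lhs => rw [← heu]
      exact AD2_inv_apply_self e u0
    have : atv κ0 ((d * μ) • f0) u0 (hM0 _) = e⁻¹ * atv κ0 (μ • f0) u0 (hM0 _) * e := by
      apply LinearEquiv.ext; intro v
      rw [LinearEquiv.mul_apply, LinearEquiv.mul_apply, atv_apply, atv_apply, map_add,
        AD2_inv_apply_self, map_smul, heu']
      simp only [LinearMap.smul_apply, smul_eq_mul, hfe]
      congr 3
      ring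
    show atv _ _ _ _ ∈ X
    rw [this]; exact X.mul_mem (X.mul_mem (X.inv_mem heX) hμ) heX
  have hMall : ∀ x : K, ∀ μ, M μ → M (x * μ) := by
    intro x
    have hx : x ∈ Subring.closure {δ : K | Algebra.norm F δ = 1} := by
      rw [closure_norm_one hr]; trivial
    induction hx using Subring.closure_induction with
    | mem d hd => exact hMmul d hd
    | zero => intro μ _; rw [zero_mul]; exact hMz
    | one => intro μ hμ; rw [one_mul]; exact hμ
    | add a b _ _ iha ihb => intro μ hμ; rw [add_mul]; exact hMadd _ _ (iha μ hμ) (ihb μ hμ)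
    | neg a _ iha => intro μ hμ; rw [neg_mul]; exact hMneg _ (iha μ hμ)
    | mul a b _ _ iha ihb => intro μ hμ; rw [mul_assoc]; exact iha _ (ihb μ hμ)
  have hMtop : ∀ μ, M μ := fun μ => by
    have := hMall μ 1 hM1
    rwa [mul_one] at this
  have hgood0 : AD2_Good (K := K) X u0 := by
    intro κ f hf
    obtain ⟨ν, hν⟩ := dualK hκ0 κ
    have hfv : ∀ v, f v = f0 v * f y := by
      intro v
      obtain ⟨α, hα⟩ := AD2_decompV hm hu0 h0 hy v
      conv_lhs => rw [hα]
      rw [map_add, map_smul, map_smul, hf]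
      simp
    have : atv κ f u0 hf = atv κ0 ((ν * f y) • f0) u0 (hM0 _) := by
      apply LinearEquiv.ext; intro v
      rw [atv_apply, atv_apply, hν, hfv]
      simp only [LinearMap.smul_apply, smul_eq_mul]
      congr 3
      ring
    rw [this]
    exact hMtop _
  have hy0 : y ≠ 0 := by
    rintro rfl
    rw [map_zero] at hy
    exact zero_ne_one hy
  have hyn : y ∉ Submodule.span K {u0} := by
    intro hmem
    obtain ⟨c, hc⟩ := Submodule.mem_span_singleton.1 hmem
    rw [← hc, map_smul, h0, smul_zero] at hy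
    exact zero_ne_one hy
  have hgoody : AD2_Good (K := K) X y := AD2_transfer X hX hu0 hgood0 hyn
  intro κ f u hu
  by_cases hmem : u ∈ Submodule.span K {u0}
  · by_cases hu00 : u = 0
    · subst hu00
      have : atv κ f 0 hu = 1 := by
        apply LinearEquiv.ext; intro v; simp
      rw [this]; exact X.one_mem
    · apply AD2_transfer X hX hy0 hgoody
      intro hmem2
      obtain ⟨c, hc⟩ := Submodule.mem_span_singleton.1 hmem
      obtain ⟨c', hc'⟩ := Submodule.mem_span_singleton.1 hmem2
      have h1 : f0 u = 0 := by rw [← hc, map_smul, h0, smul_zero]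
      have h2 : f0 u = c' := by rw [← hc', map_smul, hy]; simp
      apply hu00
      rw [← hc', ← h2, h1, zero_smul]
  · exact AD2_transfer X hX hu0 hgood0 hmem κ f hu

end Cfsg.Agent.Lib.Helper17.C3W
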