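import Cfsg.Agent.Lib.Helper17.C3W.Defs

set_option autoImplicit false

namespace Cfsg.Agent.Lib.Helper17.C3W

open Module Cfsg.Agent.Lib.Helper97.C3

variable {F K V : Type*} [Field F] [Field K] [Algebra F K] [AddCommGroup V]
  [Module F V] [Module K V] [IsScalarTower F K V]

/-- the functional `f0` with `f0 x₀ = 0` and `f0 (g⁻¹ (l • x)) = ω l`. -/
theorem tlam_exists_f0 (X : Subgroup (V ≃ₗ[F] V)) {x x₀ : V} {g : V ≃ₗ[F] V} {ω : K →ₗ[F] F}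
    (h : CloseW K X x g x₀ ω) :
    ∃ f0 : V →ₗ[K] K, f0 x₀ = 0 ∧ ∀ l : K, f0 (g.symm (l • x)) = algebraMap F K (ω l) := by
  obtain ⟨hx, hx₀, hg, hω0, hω⟩ := h
  obtain ⟨l0, hl0⟩ : ∃ l, ω l ≠ 0 := by
    by_contra hc
    push Not at hc
    exact hω0 (LinearMap.ext hc)
  obtain ⟨l1, hl1⟩ : ∃ l1, ω l1 = 1 :=
    ⟨(ω l0)⁻¹ • l0, by rw [map_smul, smul_eq_mul, inv_mul_cancel₀ hl0]⟩
  have hmem : ∀ l : K, l • x ∈ (kpt F K x₀).map g.toLinearMap ↔ g.symm (l • x) ∈ kpt F K x₀ := by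
    intro l
    constructor
    · rintro ⟨y, hy, hyl⟩
      have : g y = l • x := hyl
      rw [← this, LinearEquiv.symm_apply_apply]
      exact hy
    · intro hy
      exact ⟨_, hy, LinearEquiv.apply_symm_apply g _⟩
  have hp : g.symm (l1 • x) ∉ kpt F K x₀ := by
    rw [← hmem, ← hω, hl1]
    exact one_ne_zero
  obtain ⟨f0, hf0, hf1⟩ := exists_fun_one' hp
  refine ⟨f0, hf0, fun l => ?_⟩
  have h1 : ω (l - ω l • l1) = 0 := by
    rw [map_sub, map_smul, hl1, smul_eq_mul, mul_one, sub_self]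
  have h2 : g.symm ((l - ω l • l1) • x) ∈ kpt F K x₀ := by
    rw [← hmem, ← hω]; exact h1
  obtain ⟨c, hc⟩ := mem_kpt.1 h2
  have h3 : f0 (g.symm ((l - ω l • l1) • x)) = 0 := by
    rw [← hc, map_smul, hf0, smul_zero]
  have h4 : l • x = (l - ω l • l1) • x + ω l • (l1 • x) := by
    rw [sub_smul, smul_assoc]; abel
  rw [h4, map_add, map_add, h3, zero_add, map_smul, LinearMap.map_smul_of_tower, hf1,
    Algebra.algebraMap_eq_smul_one]

theorem tact_of_closeW [FiniteDimensional F K] [FiniteDimensional K V]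
    (X : Subgroup (V ≃ₗ[F] V)) (hX : BigW K X) {x x₀ : V} {g : V ≃ₗ[F] V} {ω : K →ₗ[F] F}
    (h : CloseW K X x g x₀ ω) : ∃ ω' : K →ₗ[F] F, ω' ≠ 0 ∧ TAct X x ω' := by
  obtain ⟨f0, hf0, hf1⟩ := tlam_exists_f0 X h
  obtain ⟨hx, hx₀, hg, hω0, hω⟩ := h
  refine ⟨ω, hω0, fun a ha => ?_⟩
  obtain ⟨y, hy, hya⟩ := (hω a).1 ha
  obtain ⟨n, rfl⟩ := mem_kpt.1 hy
  have hya' : g (n • x₀) = a • x := hya
  have hz : (n • f0) x₀ = 0 := by simp [hf0]
  refine ⟨g * ktv F (n • f0) x₀ hz * g⁻¹, X.mul_mem (X.mul_mem hg (ktv_memW hX _ _ _)) (X.inv_mem hg),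
    fun l => ?_⟩
  have e1 : (g * ktv F (n • f0) x₀ hz * g⁻¹) (l • x) = g (ktv F (n • f0) x₀ hz (g.symm (l • x))) := rfl
  rw [e1, ktv_apply, map_add, LinearEquiv.apply_symm_apply, LinearMap.smul_apply, hf1, smul_eq_mul,
    mul_comm, mul_smul, algebraMap_smul, map_smul, hya']

end Cfsg.Agent.Lib.Helper17.C3W
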