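import Cfsg.Agent.Lib.Helper17.C3W.MAXINT
import Cfsg.Agent.Lib.Helper17.C3W.TLAM
import Cfsg.Agent.Lib.Helper17.C3W.R3
import Cfsg.Agent.Lib.Helper17.C3W.R2Q3
import Cfsg.Agent.Lib.Helper17.C3W.AD2

/-!
# helper97's C3 core for `dim_K V = 2`, `q ≥ 3`, under the weaker hypothesis `BigW`
-/

set_option autoImplicit false

namespace Cfsg.Agent.Lib.Helper17.C3W

open Module Cfsg.Agent.Lib.Helper97.C3

variable {F K V : Type*} [Field F] [Field K] [Algebra F K] [AddCommGroup V]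
  [Module F V] [Module K V] [IsScalarTower F K V]

theorem allATV_core [Fintype F] [FiniteDimensional F K] [FiniteDimensional K V]
    (hr : (finrank F K).Prime) (hm2 : finrank K V = 2) (hq : 2 < Fintype.card F)
    (X : Subgroup (V ≃ₗ[F] V)) (hX : BigW K X) (g : V ≃ₗ[F] V) (hg : g ∈ X) (hgN : ¬ Nrm K g) :
    AllATV K X := by
  have hm : 2 ≤ finrank K V := hm2.ge
  have h1 : ∃ x₀ : V, ∀ y : V, (kpt F K x₀).map g.toLinearMap ≠ kpt F K y := by
    by_contra hcon
    push Not at hcon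
    exact hgN (nrm_of_points hm g hcon)
  obtain ⟨x₀, hx₀⟩ := h1
  obtain ⟨x, g', x₀', hc⟩ := exists_close hr X hX g hg x₀ hx₀
  obtain ⟨ω, hw⟩ := closeW_of_close X hc
  apply allATV_of_two hr.two_le hm2 X hX
  obtain ⟨ω', hω', ht⟩ := tact_of_closeW X hX hw
  rcases Nat.lt_or_ge 2 (finrank F K) with hr3 | hr3
  · exact hasATV_of_tact_three hr hr3 hm X hX hw.1 hω' ht
  · have hr2 : finrank F K = 2 := le_antisymm hr3 hr.two_le
    exact hasATV_of_tact_two hr2 hm2 hq X hX hw.1 hω' ht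

end Cfsg.Agent.Lib.Helper17.C3W
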